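import Cfsg.Agent.MT.Kit
import Cfsg.Agent.Gold.Defs

/-! Generators and relations for the 2-local subgroups of `M₂₂` and `M₂₃`. -/

set_option autoImplicit false
set_option maxRecDepth 100000
set_option linter.unusedSimpArgs false
set_option maxHeartbeats 1000000

namespace Cfsg.Lib.MT

open Subgroup Cfsg.Lib.Spor Cfsg.Lib.Spor.Bulk Cfsg.Lib.Spor.PK Cfsg.Lib.Spor.WF

/-- The generators. -/
structure Tup (G : Type*) where
  (z p a c b d f h : G)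

/-- inverse letters -/
noncomputable def io (l : ℕ) : ℕ := PK.nth 0 [0, 1, 2, 3, 4, 5, 6, 7, 9, 8, 11, 10, 12, 13, 14, 15] l

/-- relators of `2⁴` -/
def rA : List (List ℕ) := [[2, 1, 2, 1], [3, 1, 3, 1], [4, 1, 4, 1], [3, 2, 3, 2], [4, 2, 4, 2], [4, 3, 4, 3]]

/-- relators of `2⁴:S₄` -/
def r0 : List (List ℕ) := rA ++ [[5, 1, 5, 1], [6, 1, 6, 1], [5, 2, 5, 2], [6, 2, 6, 2], [6, 5, 6, 5], [3, 1, 5, 3, 5], [4, 2, 5, 4, 5], [3,
    2, 6, 3, 6], [4, 2, 1, 6, 4, 6], [1, 7, 1, 7], [2, 1, 7, 2, 7], [3, 7, 3, 7], [4, 3, 7, 4, 7], [5, 7, 5,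
    7], [6, 5, 7, 6, 7], [8, 8, 8], [8, 7, 8, 7], [2, 1, 9, 1, 8], [1, 9, 2, 8], [4, 9, 3, 8], [4, 3, 9, 4,
    8], [6, 9, 5, 8], [6, 5, 9, 6, 8]]

/-- relators of `2⁴:A₆` -/
def r6 : List (List ℕ) := r0 ++ [[10, 10, 10], [9, 11, 8, 10], [10, 7, 10, 7], [10, 5, 7, 10, 5, 7, 10, 5, 7], [10, 6, 7, 10, 6, 7, 10, 6, 7,
    10, 6, 7, 10, 6, 7], [10, 5, 10, 5, 10, 5, 10, 5], [2, 3, 11, 1, 10], [1, 2, 3, 4, 11, 2, 10], [4, 11, 3,
    10], [3, 4, 11, 4, 10]]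

/-- relators of `2⁴:A₇` -/
def r7 : List (List ℕ) := r0 ++ [[10, 10, 10], [9, 11, 8, 10], [10, 7, 10, 7], [2, 11, 1, 10], [2, 1, 11, 2, 10], [4, 11, 3, 10], [4, 3, 11,
    4, 10], [5, 11, 5, 10], [6, 11, 6, 10], [1, 3, 12, 1, 12], [2, 3, 4, 12, 2, 12], [3, 12, 3, 12], [4, 12,
    4, 12], [7, 12, 7, 12], [9, 12, 8, 12], [10, 12, 10, 12, 10, 12], [5, 12, 7, 5, 12, 7, 5, 12, 7]]

/-- the word for `x ^ k * h ^ j` -/
def rep (k : ℕ) (x : List ℕ) (j : ℕ) : List ℕ :=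
  (List.replicate j [8]).flatten ++ (List.replicate k x).flatten

theorem wv_rep {G : Type*} [Group G] (g : ℕ → G) (k : ℕ) (x : List ℕ) (j : ℕ) :
    wv g (rep k x j) = wv g x ^ k * g 8 ^ j := by
  induction j with
  | zero =>
    induction k with
    | zero => simp [rep]
    | succ k ih =>
      simp only [rep, List.replicate_zero, List.flatten_nil, List.nil_append, pow_zero, mul_one,
        List.replicate_succ, List.flatten_cons, wv_append] at ih ⊢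
      rw [ih, pow_succ]
  | succ j ih =>
    simp only [rep, List.replicate_succ, List.flatten_cons, wv_append, List.append_assoc] at ih ⊢
    rw [ih, pow_succ, wv_cons, wv_nil, one_mul, mul_assoc]

/-- relators with `n`, case `A₆` -/
def n22 : List (List ℕ) := [[5, 12, 1, 12], [6, 12, 2, 12], [7, 12, 7, 12], [8, 12, 8, 12], [3, 12, 3, 12, 3, 12]]

/-- relators with `n`, case `A₇` -/
def n23 : List (List ℕ) := [[5, 13, 1, 13], [6, 13, 2, 13], [7, 13, 7, 13], [8, 13, 8, 13], [3, 13, 3, 13, 3, 13], [10, 9, 13, 8, 11,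
    13]]

/-- relators of the amalgam and `(n f y) ^ k h ^ j` -/
def r22 (k j : ℕ) : List (List ℕ) := r6 ++ n22 ++ [rep k [10, 7, 12] j]

/-- relators of the amalgam and `(v n f) ^ k` -/
def r23 (k : ℕ) : List (List ℕ) := r7 ++ n23 ++ [rep k [7, 13, 12] 0]

namespace Tup

variable {G : Type*} [Group G] (T : Tup G) (y s v n : G)

/-- letters -/
def g0 : ℕ → G := lf [1, T.z, T.p, T.a, T.c, T.b, T.d, T.f, T.h, T.h⁻¹]

/-- letters, case `A₆` -/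
def g6 : ℕ → G := lf [1, T.z, T.p, T.a, T.c, T.b, T.d, T.f, T.h, T.h⁻¹, y, y⁻¹]

/-- letters, case `A₇` -/
def g7 : ℕ → G := lf [1, T.z, T.p, T.a, T.c, T.b, T.d, T.f, T.h, T.h⁻¹, s, s⁻¹, v]

/-- all letters, case `A₆` -/
def g22 : ℕ → G := lf [1, T.z, T.p, T.a, T.c, T.b, T.d, T.f, T.h, T.h⁻¹, y, y⁻¹, n]

/-- all letters, case `A₇` -/
def g23 : ℕ → G := lf [1, T.z, T.p, T.a, T.c, T.b, T.d, T.f, T.h, T.h⁻¹, s, s⁻¹, v, n]

theorem g0_0 : T.g0 0 = 1 := rfl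
theorem g0_1 : T.g0 1 = T.z := rfl
theorem g0_2 : T.g0 2 = T.p := rfl
theorem g0_3 : T.g0 3 = T.a := rfl
theorem g0_4 : T.g0 4 = T.c := rfl
theorem g0_5 : T.g0 5 = T.b := rfl
theorem g0_6 : T.g0 6 = T.d := rfl
theorem g0_7 : T.g0 7 = T.f := rfl
theorem g0_8 : T.g0 8 = T.h := rfl
theorem g0_9 : T.g0 9 = T.h⁻¹ := rfl

theorem g6_0 : T.g6 y 0 = 1 := rfl
theorem g6_1 : T.g6 y 1 = T.z := rfl
theorem g6_2 : T.g6 y 2 = T.p := rfl
theorem g6_3 : T.g6 y 3 = T.a := rfl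
theorem g6_4 : T.g6 y 4 = T.c := rfl
theorem g6_5 : T.g6 y 5 = T.b := rfl
theorem g6_6 : T.g6 y 6 = T.d := rfl
theorem g6_7 : T.g6 y 7 = T.f := rfl
theorem g6_8 : T.g6 y 8 = T.h := rfl
theorem g6_9 : T.g6 y 9 = T.h⁻¹ := rfl
theorem g6_10 : T.g6 y 10 = y := rfl
theorem g6_11 : T.g6 y 11 = y⁻¹ := rfl

theorem g7_0 : T.g7 s v 0 = 1 := rfl
theorem g7_1 : T.g7 s v 1 = T.z := rfl
theorem g7_2 : T.g7 s v 2 = T.p := rfl
theorem g7_3 : T.g7 s v 3 = T.a := rfl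
theorem g7_4 : T.g7 s v 4 = T.c := rfl
theorem g7_5 : T.g7 s v 5 = T.b := rfl
theorem g7_6 : T.g7 s v 6 = T.d := rfl
theorem g7_7 : T.g7 s v 7 = T.f := rfl
theorem g7_8 : T.g7 s v 8 = T.h := rfl
theorem g7_9 : T.g7 s v 9 = T.h⁻¹ := rfl
theorem g7_10 : T.g7 s v 10 = s := rfl
theorem g7_11 : T.g7 s v 11 = s⁻¹ := rfl
theorem g7_12 : T.g7 s v 12 = v := rfl

theorem g22_0 : T.g22 y n 0 = 1 := rfl
theorem g22_1 : T.g22 y n 1 = T.z := rfl
theorem g22_2 : T.g22 y n 2 = T.p := rfl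
theorem g22_3 : T.g22 y n 3 = T.a := rfl
theorem g22_4 : T.g22 y n 4 = T.c := rfl
theorem g22_5 : T.g22 y n 5 = T.b := rfl
theorem g22_6 : T.g22 y n 6 = T.d := rfl
theorem g22_7 : T.g22 y n 7 = T.f := rfl
theorem g22_8 : T.g22 y n 8 = T.h := rfl
theorem g22_9 : T.g22 y n 9 = T.h⁻¹ := rfl
theorem g22_10 : T.g22 y n 10 = y := rfl
theorem g22_11 : T.g22 y n 11 = y⁻¹ := rfl
theorem g22_12 : T.g22 y n 12 = n := rfl

theorem g23_0 : T.g23 s v n 0 = 1 := rfl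
theorem g23_1 : T.g23 s v n 1 = T.z := rfl
theorem g23_2 : T.g23 s v n 2 = T.p := rfl
theorem g23_3 : T.g23 s v n 3 = T.a := rfl
theorem g23_4 : T.g23 s v n 4 = T.c := rfl
theorem g23_5 : T.g23 s v n 5 = T.b := rfl
theorem g23_6 : T.g23 s v n 6 = T.d := rfl
theorem g23_7 : T.g23 s v n 7 = T.f := rfl
theorem g23_8 : T.g23 s v n 8 = T.h := rfl
theorem g23_9 : T.g23 s v n 9 = T.h⁻¹ := rfl
theorem g23_10 : T.g23 s v n 10 = s := rfl
theorem g23_11 : T.g23 s v n 11 = s⁻¹ := rfl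
theorem g23_12 : T.g23 s v n 12 = v := rfl
theorem g23_13 : T.g23 s v n 13 = n := rfl

/-- `A = ⟨z, p, a, c⟩` -/
def A : Subgroup G := sub T.g0 [[1], [2], [3], [4]]

/-- `B = ⟨z, p, b, d⟩` -/
def B : Subgroup G := sub T.g0 [[1], [2], [5], [6]]

/-- `Z = ⟨z, p⟩` -/
def Z : Subgroup G := sub T.g0 [[1], [2]]

/-- `J = A B` -/
def J : Subgroup G := sub T.g0 [[1], [2], [3], [4], [5], [6]]

/-- the Sylow 2-subgroup -/
def S : Subgroup G := sub T.g0 [[1], [2], [3], [4], [5], [6], [7]]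

/-- `2⁴:S₄` -/
def P : Subgroup G := sub T.g0 [[1], [2], [3], [4], [5], [6], [7], [8], [9]]

/-- a complement to `A` in `P` -/
def K : Subgroup G := sub T.g0 [[5], [6], [7], [8]]

/-- `2⁴:A₆` -/
def N6 : Subgroup G := sub (T.g6 y) [[1], [2], [3], [4], [5], [6], [7], [8], [9], [10], [11]]

/-- `2⁴:A₇` -/
def N7 : Subgroup G :=
  sub (T.g7 s v) [[1], [2], [3], [4], [5], [6], [7], [8], [9], [10], [11], [12]]

/-- `A B:(3 × S₃)`-like subgroup of order 1152 -/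
def B0 : Subgroup G := sub (T.g6 s) [[1], [2], [3], [4], [5], [6], [7], [8], [10]]

/-- interchange `A` and `B` -/
def swap : Tup G := ⟨T.z, T.p, T.b, T.d, T.a, T.c, T.f, T.h⟩

/-- change the generators of `A` -/
def twA : Tup G := ⟨T.z, T.p, T.a * T.z, T.c * T.p * T.z, T.b, T.d, T.f, T.h⟩

/-- change the generators of `B` -/
def twB : Tup G := ⟨T.z, T.p, T.a, T.c, T.b * T.z, T.d * T.p * T.z, T.f, T.h⟩

/-- the image under a homomorphism -/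
def map {G' : Type*} [Group G'] (φ : G →* G') : Tup G' :=
  ⟨φ T.z, φ T.p, φ T.a, φ T.c, φ T.b, φ T.d, φ T.f, φ T.h⟩

theorem mem_sub (l : ℕ) {W : List (List ℕ)} (h : [l] ∈ W := by decide) : T.g0 l ∈ sub T.g0 W := by
  simpa using wv_mem_sub T.g0 h

theorem sub_mono {W W' : List (List ℕ)} (h : ∀ L ∈ W, L ∈ W' := by decide) :
    sub T.g0 W ≤ sub T.g0 W' := sub_le fun L hL => wv_mem_sub _ (h L hL)

theorem swap_A : T.swap.A = T.B := rfl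
theorem swap_B : T.swap.B = T.A := rfl
theorem swap_Z : T.swap.Z = T.Z := rfl
omit [Group G] in
theorem swap_swap : T.swap.swap = T := rfl
theorem twB_A : T.twB.A = T.A := rfl
theorem twA_B : T.twA.B = T.B := rfl
theorem twA_Z : T.twA.Z = T.Z := rfl
theorem twB_Z : T.twB.Z = T.Z := rfl
theorem twB_eq : T.twB = T.swap.twA.swap := rfl

theorem Z_le_A : T.Z ≤ T.A := T.sub_mono
theorem Z_le_B : T.Z ≤ T.B := T.sub_mono
theorem A_le_J : T.A ≤ T.J := T.sub_mono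
theorem B_le_J : T.B ≤ T.J := T.sub_mono
theorem J_le_S : T.J ≤ T.S := T.sub_mono
theorem S_le_P : T.S ≤ T.P := T.sub_mono
theorem K_le_P : T.K ≤ T.P := T.sub_mono
theorem z_mem : T.z ∈ T.Z := T.mem_sub 1
theorem p_mem : T.p ∈ T.Z := T.mem_sub 2
theorem a_mem : T.a ∈ T.A := T.mem_sub 3
theorem c_mem : T.c ∈ T.A := T.mem_sub 4
theorem b_mem : T.b ∈ T.B := T.mem_sub 5
theorem d_mem : T.d ∈ T.B := T.mem_sub 6
theorem f_mem : T.f ∈ T.S := T.mem_sub 7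
theorem h_mem : T.h ∈ T.P := T.mem_sub 8

variable {T} {H : Subgroup G}

theorem Z_le_iff : T.Z ≤ H ↔ T.z ∈ H ∧ T.p ∈ H :=
  ⟨fun h => ⟨h T.z_mem, h T.p_mem⟩, fun h => sub_le (by simpa [g0_1, g0_2] using h)⟩

theorem A_le_iff : T.A ≤ H ↔ T.z ∈ H ∧ T.p ∈ H ∧ T.a ∈ H ∧ T.c ∈ H :=
  ⟨fun h => ⟨h (T.mem_sub 1), h (T.mem_sub 2), h T.a_mem, h T.c_mem⟩,
    fun h => sub_le (by simpa [g0_1, g0_2, g0_3, g0_4] using h)⟩

theorem B_le_iff : T.B ≤ H ↔ T.z ∈ H ∧ T.p ∈ H ∧ T.b ∈ H ∧ T.d ∈ H := A_le_iff (T := T.swap)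

theorem J_le_iff : T.J ≤ H ↔ T.A ≤ H ∧ T.b ∈ H ∧ T.d ∈ H :=
  ⟨fun h => ⟨T.A_le_J.trans h, h (T.mem_sub 5), h (T.mem_sub 6)⟩, fun h => sub_le (by
    simpa [g0_1, g0_2, g0_3, g0_4, g0_5, g0_6, A_le_iff, and_assoc] using h)⟩

theorem S_le_iff : T.S ≤ H ↔ T.J ≤ H ∧ T.f ∈ H :=
  ⟨fun h => ⟨T.J_le_S.trans h, h T.f_mem⟩, fun h => sub_le (by
    simpa [g0_1, g0_2, g0_3, g0_4, g0_5, g0_6, g0_7, A_le_iff, J_le_iff, and_assoc] using h)⟩

theorem P_le_iff : T.P ≤ H ↔ T.S ≤ H ∧ T.h ∈ H :=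
  ⟨fun h => ⟨T.S_le_P.trans h, h T.h_mem⟩, fun h => sub_le (by
    simpa [g0_1, g0_2, g0_3, g0_4, g0_5, g0_6, g0_7, g0_8, g0_9, A_le_iff, J_le_iff, S_le_iff,
      and_assoc] using h)⟩

theorem K_le_iff : T.K ≤ H ↔ T.b ∈ H ∧ T.d ∈ H ∧ T.f ∈ H ∧ T.h ∈ H :=
  ⟨fun h => ⟨h (T.mem_sub 5), h (T.mem_sub 6), h (T.mem_sub 7), h (T.mem_sub 8)⟩,
    fun h => sub_le (by simpa [g0_5, g0_6, g0_7, g0_8] using h)⟩

theorem le_iff_of {g : ℕ → G} {W : List (List ℕ)} : sub g W ≤ H ↔ ∀ L ∈ W, wv g L ∈ H :=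
  ⟨fun h _ hL => h (wv_mem_sub g hL), sub_le⟩

theorem N6_le_iff {y : G} : T.N6 y ≤ H ↔ T.P ≤ H ∧ y ∈ H := by
  simp [N6, le_iff_of, g6_1, g6_2, g6_3, g6_4, g6_5, g6_6, g6_7, g6_8, g6_9, g6_10, g6_11, A_le_iff,
    J_le_iff, S_le_iff, P_le_iff, and_assoc]

theorem B0_le_iff {s : G} : T.B0 s ≤ H ↔ T.P ≤ H ∧ s ∈ H := by
  simp [B0, le_iff_of, g6_1, g6_2, g6_3, g6_4, g6_5, g6_6, g6_7, g6_8, g6_10, A_le_iff,
    J_le_iff, S_le_iff, P_le_iff, and_assoc]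

theorem N7_le_iff {s v : G} : T.N7 s v ≤ H ↔ T.P ≤ H ∧ s ∈ H ∧ v ∈ H := by
  simp [N7, le_iff_of, g7_1, g7_2, g7_3, g7_4, g7_5, g7_6, g7_7, g7_8, g7_9, g7_10, g7_11, g7_12,
    A_le_iff, J_le_iff, S_le_iff, P_le_iff, and_assoc]

theorem J_eq : T.J = T.A ⊔ T.B := le_antisymm
  (J_le_iff.2 ⟨le_sup_left, mem_sup_right T.b_mem, mem_sup_right T.d_mem⟩)
  (sup_le T.A_le_J T.B_le_J)

theorem S_eq : T.S = T.J ⊔ zpowers T.f := le_antisymm
  (S_le_iff.2 ⟨le_sup_left, mem_sup_right (mem_zpowers _)⟩)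
  (sup_le T.J_le_S (zpowers_le.2 T.f_mem))

theorem P_eq : T.P = T.S ⊔ zpowers T.h := le_antisymm
  (P_le_iff.2 ⟨le_sup_left, mem_sup_right (mem_zpowers _)⟩)
  (sup_le T.S_le_P (zpowers_le.2 T.h_mem))

variable (T)

theorem swap_J : T.swap.J = T.J := by rw [J_eq, J_eq, sup_comm]; rfl
theorem swap_S : T.swap.S = T.S := by rw [S_eq, S_eq, swap_J]; rfl
theorem swap_P : T.swap.P = T.P := by rw [P_eq, P_eq, swap_S]; rfl

theorem twA_A : T.twA.A = T.A := by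
  have z := T.Z_le_A T.z_mem
  have p := T.Z_le_A T.p_mem
  have z' : T.z ∈ T.twA.A := T.twA.Z_le_A T.twA.z_mem
  have p' : T.p ∈ T.twA.A := T.twA.Z_le_A T.twA.p_mem
  refine le_antisymm (A_le_iff.2 ⟨z, p, mul_mem T.a_mem z, mul_mem (mul_mem T.c_mem p) z⟩)
    (A_le_iff.2 ⟨z', p', (mul_mem_cancel_right z').1 T.twA.a_mem,
      (mul_mem_cancel_right p').1 ((mul_mem_cancel_right z').1 T.twA.c_mem)⟩)

theorem twA_J : T.twA.J = T.J := by rw [J_eq, J_eq, twA_A]; rfl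
theorem twA_S : T.twA.S = T.S := by rw [S_eq, S_eq, twA_J]; rfl
theorem twA_P : T.twA.P = T.P := by rw [P_eq, P_eq, twA_S]; rfl
theorem twB_B : T.twB.B = T.B := T.swap.twA_A
theorem twB_J : T.twB.J = T.J := by rw [J_eq, J_eq, twB_B]; rfl
theorem twB_S : T.twB.S = T.S := by rw [S_eq, S_eq, twB_J]; rfl
theorem twB_P : T.twB.P = T.P := by rw [P_eq, P_eq, twB_S]; rfl

end Tup

variable {G : Type*} [Group G]

/-- The relations of `2⁴:S₄`. -/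
structure R0 (T : Tup G) : Prop where
  sat : Sat T.g0 10 io r0
  ne : T.z ≠ 1

/-- The relations in the form of equations. -/
structure Nat0 (T : Tup G) : Prop where
  zz : T.z * T.z = 1
  pp : T.p * T.p = 1
  aa : T.a * T.a = 1
  cc : T.c * T.c = 1
  bb : T.b * T.b = 1
  dd : T.d * T.d = 1
  ff : T.f * T.f = 1
  zp : T.z * T.p = T.p * T.z
  za : T.z * T.a = T.a * T.z
  zc : T.z * T.c = T.c * T.z
  pa : T.p * T.a = T.a * T.p
  pc : T.p * T.c = T.c * T.p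
  ac : T.a * T.c = T.c * T.a
  zb : T.z * T.b = T.b * T.z
  zd : T.z * T.d = T.d * T.z
  pb : T.p * T.b = T.b * T.p
  pd : T.p * T.d = T.d * T.p
  bd : T.b * T.d = T.d * T.b
  ba : T.b * T.a = T.a * T.z * T.b
  bc : T.b * T.c = T.c * T.p * T.b
  da : T.d * T.a = T.a * T.p * T.d
  dc : T.d * T.c = T.c * T.p * T.z * T.d
  fz : T.f * T.z = T.z * T.f
  fp : T.f * T.p = T.p * T.z * T.f
  fa : T.f * T.a = T.a * T.f
  fc : T.f * T.c = T.c * T.a * T.f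
  fb : T.f * T.b = T.b * T.f
  fd : T.f * T.d = T.d * T.b * T.f
  hhh : T.h * T.h * T.h = 1
  fh : T.f * T.h * T.f * T.h = 1
  hz : T.h * T.z = T.p * T.z * T.h
  hp : T.h * T.p = T.z * T.h
  ha : T.h * T.a = T.c * T.h
  hc : T.h * T.c = T.c * T.a * T.h
  hb : T.h * T.b = T.d * T.h
  hd : T.h * T.d = T.d * T.b * T.h

theorem Nat0.sat {T : Tup G} (h : Nat0 T) : Sat T.g0 10 io r0 := by
  have k : ∀ {x : G}, x * x = 1 → ∀ y, x * (x * y) = y := fun e y => by rw [← mul_assoc, e, one_mul]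
  refine ⟨rfl, fun l hl => ?_, fun r hr => ?_⟩
  · interval_cases l
    exacts [inv_one.symm, eq_inv_of_mul_eq_one_left h.zz, eq_inv_of_mul_eq_one_left h.pp,
      eq_inv_of_mul_eq_one_left h.aa, eq_inv_of_mul_eq_one_left h.cc,
      eq_inv_of_mul_eq_one_left h.bb, eq_inv_of_mul_eq_one_left h.dd,
      eq_inv_of_mul_eq_one_left h.ff, rfl, (inv_inv _).symm]
  · simp only [r0, rA, List.cons_append, List.nil_append, List.mem_cons, List.not_mem_nil,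
      or_false] at hr
    rcases hr with rfl | rfl | rfl | rfl | rfl | rfl | rfl | rfl | rfl | rfl | rfl | rfl | rfl | rfl | rfl | rfl | rfl | rfl | rfl | rfl | rfl | rfl | rfl | rfl | rfl | rfl | rfl | rfl | rfl <;>
      simp only [wv_cons, wv_nil, one_mul, Tup.g0_1, Tup.g0_2, Tup.g0_3, Tup.g0_4, Tup.g0_5,
        Tup.g0_6, Tup.g0_7, Tup.g0_8, Tup.g0_9]
    · rw [h.zp]
      simp only [mul_assoc, k h.zz, k h.pp, k h.aa, k h.cc, k h.bb, k h.dd, k h.ff, h.zz, h.pp, h.aa,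
        h.cc, h.bb, h.dd, h.ff, mul_inv_cancel_left, one_mul, mul_one]
    · rw [h.za]
      simp only [mul_assoc, k h.zz, k h.pp, k h.aa, k h.cc, k h.bb, k h.dd, k h.ff, h.zz, h.pp, h.aa,
        h.cc, h.bb, h.dd, h.ff, mul_inv_cancel_left, one_mul, mul_one]
    · rw [h.zc]
      simp only [mul_assoc, k h.zz, k h.pp, k h.aa, k h.cc, k h.bb, k h.dd, k h.ff, h.zz, h.pp, h.aa,
        h.cc, h.bb, h.dd, h.ff, mul_inv_cancel_left, one_mul, mul_one]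
    · rw [h.pa]
      simp only [mul_assoc, k h.zz, k h.pp, k h.aa, k h.cc, k h.bb, k h.dd, k h.ff, h.zz, h.pp, h.aa,
        h.cc, h.bb, h.dd, h.ff, mul_inv_cancel_left, one_mul, mul_one]
    · rw [h.pc]
      simp only [mul_assoc, k h.zz, k h.pp, k h.aa, k h.cc, k h.bb, k h.dd, k h.ff, h.zz, h.pp, h.aa,
        h.cc, h.bb, h.dd, h.ff, mul_inv_cancel_left, one_mul, mul_one]
    · rw [h.ac]
      simp only [mul_assoc, k h.zz, k h.pp, k h.aa, k h.cc, k h.bb, k h.dd, k h.ff, h.zz, h.pp, h.aa,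
        h.cc, h.bb, h.dd, h.ff, mul_inv_cancel_left, one_mul, mul_one]
    · rw [h.zb]
      simp only [mul_assoc, k h.zz, k h.pp, k h.aa, k h.cc, k h.bb, k h.dd, k h.ff, h.zz, h.pp, h.aa,
        h.cc, h.bb, h.dd, h.ff, mul_inv_cancel_left, one_mul, mul_one]
    · rw [h.zd]
      simp only [mul_assoc, k h.zz, k h.pp, k h.aa, k h.cc, k h.bb, k h.dd, k h.ff, h.zz, h.pp, h.aa,
        h.cc, h.bb, h.dd, h.ff, mul_inv_cancel_left, one_mul, mul_one]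
    · rw [h.pb]
      simp only [mul_assoc, k h.zz, k h.pp, k h.aa, k h.cc, k h.bb, k h.dd, k h.ff, h.zz, h.pp, h.aa,
        h.cc, h.bb, h.dd, h.ff, mul_inv_cancel_left, one_mul, mul_one]
    · rw [h.pd]
      simp only [mul_assoc, k h.zz, k h.pp, k h.aa, k h.cc, k h.bb, k h.dd, k h.ff, h.zz, h.pp, h.aa,
        h.cc, h.bb, h.dd, h.ff, mul_inv_cancel_left, one_mul, mul_one]
    · rw [h.bd]
      simp only [mul_assoc, k h.zz, k h.pp, k h.aa, k h.cc, k h.bb, k h.dd, k h.ff, h.zz, h.pp, h.aa,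
        h.cc, h.bb, h.dd, h.ff, mul_inv_cancel_left, one_mul, mul_one]
    · rw [h.ba]
      simp only [mul_assoc, k h.zz, k h.pp, k h.aa, k h.cc, k h.bb, k h.dd, k h.ff, h.zz, h.pp, h.aa,
        h.cc, h.bb, h.dd, h.ff, mul_inv_cancel_left, one_mul, mul_one]
    · rw [h.bc]
      simp only [mul_assoc, k h.zz, k h.pp, k h.aa, k h.cc, k h.bb, k h.dd, k h.ff, h.zz, h.pp, h.aa,
        h.cc, h.bb, h.dd, h.ff, mul_inv_cancel_left, one_mul, mul_one]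
    · rw [h.da]
      simp only [mul_assoc, k h.zz, k h.pp, k h.aa, k h.cc, k h.bb, k h.dd, k h.ff, h.zz, h.pp, h.aa,
        h.cc, h.bb, h.dd, h.ff, mul_inv_cancel_left, one_mul, mul_one]
    · rw [h.dc]
      simp only [mul_assoc, k h.zz, k h.pp, k h.aa, k h.cc, k h.bb, k h.dd, k h.ff, h.zz, h.pp, h.aa,
        h.cc, h.bb, h.dd, h.ff, mul_inv_cancel_left, one_mul, mul_one]
    · rw [h.fz]
      simp only [mul_assoc, k h.zz, k h.pp, k h.aa, k h.cc, k h.bb, k h.dd, k h.ff, h.zz, h.pp, h.aa,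
        h.cc, h.bb, h.dd, h.ff, mul_inv_cancel_left, one_mul, mul_one]
    · rw [h.fp]
      simp only [mul_assoc, k h.zz, k h.pp, k h.aa, k h.cc, k h.bb, k h.dd, k h.ff, h.zz, h.pp, h.aa,
        h.cc, h.bb, h.dd, h.ff, mul_inv_cancel_left, one_mul, mul_one]
    · rw [h.fa]
      simp only [mul_assoc, k h.zz, k h.pp, k h.aa, k h.cc, k h.bb, k h.dd, k h.ff, h.zz, h.pp, h.aa,
        h.cc, h.bb, h.dd, h.ff, mul_inv_cancel_left, one_mul, mul_one]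
    · rw [h.fc]
      simp only [mul_assoc, k h.zz, k h.pp, k h.aa, k h.cc, k h.bb, k h.dd, k h.ff, h.zz, h.pp, h.aa,
        h.cc, h.bb, h.dd, h.ff, mul_inv_cancel_left, one_mul, mul_one]
    · rw [h.fb]
      simp only [mul_assoc, k h.zz, k h.pp, k h.aa, k h.cc, k h.bb, k h.dd, k h.ff, h.zz, h.pp, h.aa,
        h.cc, h.bb, h.dd, h.ff, mul_inv_cancel_left, one_mul, mul_one]
    · rw [h.fd]
      simp only [mul_assoc, k h.zz, k h.pp, k h.aa, k h.cc, k h.bb, k h.dd, k h.ff, h.zz, h.pp, h.aa,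
        h.cc, h.bb, h.dd, h.ff, mul_inv_cancel_left, one_mul, mul_one]
    · exact h.hhh
    · exact h.fh
    · rw [h.hz]
      simp only [mul_assoc, k h.zz, k h.pp, k h.aa, k h.cc, k h.bb, k h.dd, k h.ff, h.zz, h.pp, h.aa,
        h.cc, h.bb, h.dd, h.ff, mul_inv_cancel_left, one_mul, mul_one]
    · rw [h.hp]
      simp only [mul_assoc, k h.zz, k h.pp, k h.aa, k h.cc, k h.bb, k h.dd, k h.ff, h.zz, h.pp, h.aa,
        h.cc, h.bb, h.dd, h.ff, mul_inv_cancel_left, one_mul, mul_one]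
    · rw [h.ha]
      simp only [mul_assoc, k h.zz, k h.pp, k h.aa, k h.cc, k h.bb, k h.dd, k h.ff, h.zz, h.pp, h.aa,
        h.cc, h.bb, h.dd, h.ff, mul_inv_cancel_left, one_mul, mul_one]
    · rw [h.hc]
      simp only [mul_assoc, k h.zz, k h.pp, k h.aa, k h.cc, k h.bb, k h.dd, k h.ff, h.zz, h.pp, h.aa,
        h.cc, h.bb, h.dd, h.ff, mul_inv_cancel_left, one_mul, mul_one]
    · rw [h.hb]
      simp only [mul_assoc, k h.zz, k h.pp, k h.aa, k h.cc, k h.bb, k h.dd, k h.ff, h.zz, h.pp, h.aa,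
        h.cc, h.bb, h.dd, h.ff, mul_inv_cancel_left, one_mul, mul_one]
    · rw [h.hd]
      simp only [mul_assoc, k h.zz, k h.pp, k h.aa, k h.cc, k h.bb, k h.dd, k h.ff, h.zz, h.pp, h.aa,
        h.cc, h.bb, h.dd, h.ff, mul_inv_cancel_left, one_mul, mul_one]

theorem R0.nat {T : Tup G} (h : R0 T) : Nat0 T := by
  have i : ∀ l < 10, T.g0 (io l) * T.g0 l = 1 := fun l hl => by rw [h.sat.inv l hl, inv_mul_cancel]
  have k : ∀ {x : G}, x * x = 1 → x⁻¹ = x := fun e => inv_eq_of_mul_eq_one_right e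
  have z : T.z⁻¹ = T.z := k (i 1 (by omega))
  have p : T.p⁻¹ = T.p := k (i 2 (by omega))
  have a : T.a⁻¹ = T.a := k (i 3 (by omega))
  have c : T.c⁻¹ = T.c := k (i 4 (by omega))
  have b : T.b⁻¹ = T.b := k (i 5 (by omega))
  have d : T.d⁻¹ = T.d := k (i 6 (by omega))
  have f : T.f⁻¹ = T.f := k (i 7 (by omega))
  have r := h.sat.rel
  simp only [r0, rA, List.cons_append, List.nil_append, List.forall_mem_cons, wv_cons, wv_nil,
    one_mul, Tup.g0_1, Tup.g0_2, Tup.g0_3, Tup.g0_4, Tup.g0_5, Tup.g0_6, Tup.g0_7, Tup.g0_8,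
    Tup.g0_9] at r
  obtain ⟨zp, za, zc, pa, pc, ac, zb, zd, pb, pd, bd, ba, bc, da, dc, fz, fp, fa, fc, fb, fd, hhh, fh, hz, hp, ha, hc, hb, hd, -⟩ := r
  refine ⟨i 1 (by omega), i 2 (by omega), i 3 (by omega), i 4 (by omega), i 5 (by omega),
    i 6 (by omega), i 7 (by omega), ?_, ?_, ?_, ?_, ?_, ?_, ?_, ?_, ?_, ?_, ?_, ?_, ?_, ?_, ?_, ?_, ?_, ?_, ?_, ?_, ?_, hhh, fh, ?_, ?_, ?_, ?_, ?_, ?_⟩ <;>
    rw [← mul_inv_eq_one] <;> simp only [mul_inv_rev, z, p, a, c, b, d, f, ← mul_assoc] <;> assumption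

end Cfsg.Lib.MT
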